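import Mathlib
import Cfsg.Agent.Spor.FL2.Der
import Cfsg.Agent.Spor.FL.Lab
import Cfsg.Agent.Spor.FFin

/-!
Classes of subgroups of order `3` inside a subgroup, from tables.
-/

set_option autoImplicit false

namespace Cfsg.Agent.Spor.FL

open MulAction Subgroup

section

variable {G : Type*} [Group G] {K K' : Subgroup G} {w w' : ℕ → G} {r r' : ℕ}

/-- The element is trivial or conjugate in `K` to one of the first `r` representatives. -/
def ConjIn (K : Subgroup G) (w : ℕ → G) (r : ℕ) (a : G) : Prop := a = 1 ∨ ∃ t < r, ∃ u ∈ K, u * a * u⁻¹ = w t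

theorem ConjIn.of_conj {a u : G} (hu : u ∈ K) (h : ConjIn K w r (u * a * u⁻¹)) : ConjIn K w r a := by
  rcases h with h | ⟨t, ht, v, hv, h⟩
  · exact Or.inl (by simpa using h)
  · exact Or.inr ⟨t, ht, v * u, mul_mem hv hu, by rw [← h]; group⟩

theorem ConjIn.trans {a : G} (h : ConjIn K w r a) (hK : K ≤ K') (h' : ∀ t < r, ConjIn K' w' r' (w t)) :
    ConjIn K' w' r' a := by
  rcases h with h | ⟨t, ht, v, hv, h⟩
  exacts [Or.inl h, ConjIn.of_conj (hK hv) (h ▸ h' t ht)]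

theorem classes_rel [Finite G] {H : Type*} [Group H] {φ : H →* G} (hφ : Function.Injective φ) {A : Subgroup H}
    {L P : Subgroup G} (hA : A.map φ = L) (hK : φ.range = K) (hP : P ≤ L) {N c : ℕ} (hN : Nat.card L = N)
    (hc : Nat.card P = c) (h0 : ¬ 3 ∣ N / c) (h1 : ∀ t < r, orderOf (w t) = 3 ∧ w t ∈ L)
    (h2 : ∀ a ∈ P, a ^ 3 = 1 → ConjIn K w r a) {β : Type*} (J : G → β) (hJ : ∀ u ∈ K, ∀ a ∈ L, J (u * a * u⁻¹) = J a)
    (hJ' : ∀ a, J a⁻¹ = J a) (h3 : ∀ s < r, ∀ t < r, J (w s) = J (w t) → s = t) :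
    ∃ Y : Fin r → Subgroup H, (∀ i, Y i ≤ A ∧ Nat.card (Y i) = 3) ∧
      (∀ i j, (∃ g : H, (Y i).map (MulAut.conj g).toMonoidHom = Y j) → i = j) ∧
      ∀ X : Subgroup H, X ≤ A → Nat.card X = 3 → ∃ i, ∃ g : H, X.map (MulAut.conj g).toMonoidHom = Y i := by
  subst hA hK
  have := Finite.of_injective φ hφ
  choose v hv hw using fun i : Fin r => (h1 i i.2).2
  have ho : ∀ i, orderOf (v i) = 3 := fun i => by rw [← orderOf_injective φ hφ, hw, (h1 i i.2).1]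
  refine ⟨fun i => zpowers (v i), fun i => ⟨zpowers_le.2 (hv i), by rw [Nat.card_zpowers, ho]⟩, fun i j ⟨g, hg⟩ => ?_,
    fun X hX hc3 => ?_⟩
  · rw [map_conj_zpowers] at hg
    have k1 : g * v i * g⁻¹ ∈ zpowers (v j) := hg.le (mem_zpowers _)
    have k2 := hJ _ ⟨g, rfl⟩ _ (h1 i i.2).2
    rw [← hw, ← map_inv, ← map_mul, ← map_mul, hw] at k2
    refine Fin.ext (h3 i i.2 j j.2 ?_)
    rw [← mem_powers_iff_mem_zpowers] at k1
    obtain ⟨n, hn⟩ := k1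
    simp only at hn
    rw [← k2, ← hn, ← pow_mod_orderOf, ho]
    have k3 : n % 3 < 3 := Nat.mod_lt _ (by decide)
    interval_cases e : n % 3
    · rw [← pow_mod_orderOf, ho, e, pow_zero, eq_comm, conj_eq_one_iff] at hn
      exact absurd (ho i) (by rw [hn, orderOf_one]; decide)
    · rw [pow_one, hw]
    · rw [← hJ', ← hw, ← map_inv, ← eq_inv_of_mul_eq_one_right (a := v j ^ 2) (b := v j)
        ((pow_succ _ 2).symm.trans (orderOf_dvd_iff_pow_eq_one.1 (ho j).dvd))]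
  obtain ⟨x, hx, rfl⟩ := exists_eq_zpowers hc3
  have k0 : φ x ∈ A.map φ := ⟨x, hX (mem_zpowers x), rfl⟩
  obtain ⟨u, hu⟩ := exists_conj_le (not_dvd_index_of_card hN ((card_subgroupOf hP).trans hc) h0)
    (isPGroup_of_card_prime (X := zpowers (⟨φ x, k0⟩ : A.map φ)) (by
      rw [Nat.card_zpowers, ← orderOf_coe, orderOf_injective φ hφ, hx]))
  rcases (h2 _ (hu _ (mem_zpowers _)) (by
    show ((u : G) * φ x * (u : G)⁻¹) ^ 3 = 1
    rw [conj_pow, ← map_pow, ← hx, pow_orderOf_eq_one]; simp)).of_conj (a := φ x) (map_le_range φ A u.2) with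
    h | ⟨t, ht, _, ⟨g, rfl⟩, h⟩
  · rw [(map_eq_one_iff φ hφ).1 h, orderOf_one] at hx
    exact absurd hx (by decide)
  · refine ⟨⟨t, ht⟩, g, ?_⟩
    rw [map_conj_zpowers, hφ (show φ (g * x * g⁻¹) = φ (v ⟨t, ht⟩) by rw [hw, ← h, map_mul, map_mul, map_inv])]

end

section

variable {G α : Type*} [Group G] [MulAction G α] {e : ℕ → α} {n k : ℕ} {T : ℕ → ℕ → ℕ} {g : ℕ → G} {B : List ℕ}

/-- The element with code `N j` is conjugate by a word to the element with code `W t`. -/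
noncomputable def leafIn (T : ℕ → ℕ → ℕ) (B : List ℕ) (p k m r : ℕ) (W N : ℕ → ℕ) (D : LT) (j : ℕ) : Bool :=
  force (N j) fun c => bor (Nat.beq c 0) (force (hdL (D.get j)) fun t => band (blt t r)
    (band (lettersLt m (tlL (D.get j))) (force (W t) fun d => allL B fun b =>
      Nat.beq (force (pcT T p k 0 c b) (traceP T (tlL (D.get j)))) (force (traceP T (tlL (D.get j)) b) (pcT T p k 0 d)))))

theorem LM.leaf {m p r j : ℕ} (h : LM e n T g m B) (hk : k ≤ m) {W N : ℕ → ℕ} {D : LT}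
    (h1 : leafIn T B p k m r W N D j = true) :
    ConjIn (genLt g m) (fun t => pcG g p k 0 (W t)) r (pcG g p k 0 (N j)) := by
  simp only [leafIn, force_eq, bor_iff, band_iff, nbeq_iff, blt_iff] at h1
  rcases h1 with h1 | ⟨a1, a2, a3⟩
  · exact Or.inl (by rw [h1, pcG_zero])
  have k0 : ∀ c, pcG g p k 0 c ∈ genLt g m := fun c => genLt_mono g (by omega) (pcG_mem k 0 c)
  have k1 := evalW_mem_genLt g a2
  refine Or.inr ⟨_, a1, _, k1, ?_⟩
  rw [mul_inv_eq_iff_eq_mul]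
  exact h.eq_of_tab (mul_mem k1 (k0 _)) (mul_mem (k0 _) k1)
    (Tab.mul (h.tabs.evalW a2) (tab_pcT h.tabs k 0 _ (by omega)))
    (Tab.mul (tab_pcT h.tabs k 0 _ (by omega)) (h.tabs.evalW a2)) a3

/-- The element with code `d` has order `p`. -/
noncomputable def ordOK (T : ℕ → ℕ → ℕ) (B : List ℕ) (p k d : ℕ) : Bool :=
  band (Nat.ble 1 d) (band (blt d (Nat.pow p k)) (allL B fun b => Nat.beq (iterT (pcT T p k 0 d) p b) b))

theorem LM.ord_code [Finite G] {p d : ℕ} [Fact p.Prime] (h : LM e n T g k B) (hpc : IsPC g p k)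
    (hc : p ^ k ≤ Nat.card (genLt g k)) (h1 : ordOK T B p k d = true) :
    orderOf (pcG g p k 0 d) = p ∧ pcG g p k 0 d ∈ genLt g k := by
  simp only [ordOK, band_iff, blt_iff, Nat.ble_eq] at h1
  have k0 : pcG g p k 0 d ∈ genLt g k := by simpa using pcG_mem (g := g) (p := p) k 0 d
  refine ⟨orderOf_eq_prime (h.eq_of_tab (pow_mem k0 p) (one_mem _) ((tab_pcT h.tabs k 0 _ (by omega)).pow p)
    (fun i hi => ⟨hi, one_smul _ _⟩) h1.2.2) fun e => ?_, k0⟩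
  exact hpc.code_not_mem hc (a := 0) (Nat.zero_le _) h1.1 h1.2.1 (e ▸ one_mem _)

/-- The number of points of `S` related to their images. -/
noncomputable def relC (R : α → α → Prop) (S : Set α) (a : G) : ℕ := {y ∈ S | R y (a • y)}.ncard

variable {R : α → α → Prop} {S : Set α}

theorem relC_conj (hR : ∀ (u : G) y z, R (u • y) (u • z) ↔ R y z) {K : Subgroup G} (hS : ∀ u ∈ K, ∀ y ∈ S, u • y ∈ S)
    {u : G} (hu : u ∈ K) (a : G) : relC R S (u * a * u⁻¹) = relC R S a := by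
  rw [relC, relC, ← Set.ncard_image_of_injective _ (MulAction.injective u⁻¹)]
  congr 1
  ext y
  constructor
  · rintro ⟨z, ⟨h1, h2⟩, rfl⟩
    exact ⟨hS _ (inv_mem hu) _ h1, (hR u _ _).1 (by simpa [mul_smul] using h2)⟩
  · rintro ⟨h1, h2⟩
    exact ⟨u • y, ⟨hS _ hu _ h1, by simpa [mul_smul, hR] using h2⟩, by simp⟩

theorem relC_inv (hR : ∀ (u : G) y z, R (u • y) (u • z) ↔ R y z) (hs : ∀ y z, R y z → R z y) (a : G) :
    relC R S a⁻¹ = relC R S a := by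
  rw [relC, relC]
  congr 1
  ext y
  exact and_congr_right fun _ => by
    rw [← hR a, smul_inv_smul]
    exact ⟨hs _ _, hs _ _⟩

theorem relC_eq (he : Set.InjOn e (Set.Iio n)) {f : ℕ → ℕ} {a : G} (hf : Tab e n f a) {ρ : ℕ → ℕ → Bool}
    (hρ : ∀ i < n, ∀ j < n, ρ i j = true ↔ R (e i) (e j)) (t : ℕ → Bool) :
    relC R (e '' {i | i < n ∧ t i = true}) a = count2 n fun i => band (t i) (force (f i) (ρ i)) := by
  rw [← ncard_image_label he, relC]
  congr 1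
  ext y
  constructor
  · rintro ⟨⟨i, ⟨h1, h2⟩, rfl⟩, h3⟩
    exact ⟨i, ⟨h1, (band_iff _ _).2 ⟨h2, by rwa [force_eq, hρ i h1 _ (hf i h1).1, ← (hf i h1).2]⟩⟩, rfl⟩
  · rintro ⟨i, ⟨h1, h2⟩, rfl⟩
    rw [band_iff, force_eq, hρ i h1 _ (hf i h1).1, ← (hf i h1).2] at h2
    exact ⟨⟨i, ⟨h1, h2.1⟩, rfl⟩, h2.2⟩

theorem Inv.image {C : Subgroup G} {t : ℕ → Bool} (h : Inv e n C t) (hp : ∀ c ∈ C, ∀ i < n, ∃ j < n, c • e i = e j) :
    ∀ u ∈ C, ∀ y ∈ e '' {i | i < n ∧ t i = true}, u • y ∈ e '' {i | i < n ∧ t i = true} := by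
  rintro u hu _ ⟨i, ⟨h1, h2⟩, rfl⟩
  obtain ⟨j, hj, h3⟩ := hp u hu i h1
  exact ⟨j, ⟨hj, h u hu i h1 j hj h3 h2⟩, h3.symm⟩

theorem col_inv (h : Tabs e n T g k) {C : ℕ → ℕ}
    (hc : ∀ i < n, force (C i) (fun c => allLt k fun x => Nat.beq (C (T x i)) c) = true) (c : ℕ) :
    ∀ u ∈ genLt g k, ∀ y ∈ e '' {i | i < n ∧ Nat.beq (C i) c = true}, u • y ∈ e '' {i | i < n ∧ Nat.beq (C i) c = true} :=
  fun u hu => smul_mem_of_genLt (((Set.finite_Iio n).subset fun _ hi => hi.1).image e) (by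
    rintro x hx _ ⟨i, ⟨h1, h2⟩, rfl⟩
    have h3 := hc i h1
    simp only [force_eq, allLt_iff, nbeq_iff] at h3
    exact ⟨T x i, ⟨(h x hx i h1).1, by rw [h3 x hx]; exact h2⟩, (h x hx i h1).2.symm⟩) hu

/-- The colours form a system of blocks. -/
theorem blk_inv (h : Tabs e n T g k) (he : Set.InjOn e (Set.Iio n)) {C : ℕ → ℕ} {σ : ℕ → ℕ → ℕ}
    (hc : ∀ i < n, force (C i) (fun c => allLt k fun x => Nat.beq (C (T x i)) (σ x c)) = true) {u : G}
    (hu : u ∈ genLt g k) {i j i' j' : ℕ} (hi : i < n) (hj : j < n) (hi' : i' < n) (hj' : j' < n) (h1 : u • e i = e i')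
    (h2 : u • e j = e j') (h3 : C i = C j) : C i' = C j' := by
  simp only [force_eq, allLt_iff, nbeq_iff] at hc
  obtain ⟨⟨a, b⟩, ⟨k1, k2, k3⟩, k4⟩ := smul_mem_of_genLt
    (S := (fun q : ℕ × ℕ => (e q.1, e q.2)) '' {q | q.1 < n ∧ q.2 < n ∧ C q.1 = C q.2})
    ((((Set.finite_Iio n).prod (Set.finite_Iio n)).subset fun _ hq => ⟨hq.1, hq.2.1⟩).image _) (by
      rintro x hx _ ⟨⟨a, b⟩, ⟨k1, k2, k3⟩, rfl⟩
      exact ⟨(T x a, T x b), ⟨(h x hx a k1).1, (h x hx b k2).1, by rw [hc a k1 x hx, hc b k2 x hx, k3]⟩,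
        Prod.ext (h x hx a k1).2.symm (h x hx b k2).2.symm⟩) hu _ ⟨(i, j), ⟨hi, hj, h3⟩, rfl⟩
  rwa [← he k1 hi' ((congrArg Prod.fst k4).trans h1), ← he k2 hj' ((congrArg Prod.snd k4).trans h2)]

end

/-- Commuting points of the conjugation action. -/
def CommR {G : Type*} [Group G] (y z : Cj G) : Prop := Commute (ofCj y) (ofCj z)

theorem commR_smul {G : Type*} [Group G] (u : G) (y z : Cj G) : CommR (u • y) (u • z) ↔ CommR y z := Commute.conj_iff u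

namespace TM

variable {G : Type*} [Group G] {n m : ℕ} {X : ℕ → ℕ → ℕ} {inv : ℕ → ℕ} {B : List ℕ} (M : TM G n m X inv B)

theorem commR_iff : ∀ i < n, ∀ j < n, Nat.beq (X i j) j = true ↔ CommR (pts M.x i) (pts M.x j) := fun _ hi _ hj =>
  (nbeq_iff _ _).trans (M.commute_x_iff (hi.trans_le M.le) hj).symm

/-- A subgroup generated by a reduced class of transpositions with disconnected commuting graph. -/
theorem tri_pack (h3 : IsThreeTranspositionSet M.D) {f : ℕ → G} {k N j : ℕ} {P τ C : ℕ → ℕ} {T σ : ℕ → ℕ → ℕ}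
    {Q : List ℕ} (hT : Tabs (fun i => pts M.x (P i)) N T f k) (he : Set.InjOn (fun i => pts M.x (P i)) (Set.Iio N))
    (hP : ∀ i < N, P i < n) (hτ : ∀ s < k, τ s < N ∧ f s = M.x (P (τ s))) (hk : 0 < k)
    (hcov : ∀ i < N, ∃ a ∈ genLt f k, a • pts M.x (P (τ 0)) = pts M.x (P i)) (hZ : cen f k = ⊥)
    (hQ : allL Q (fun s => band (blt s k) (band (!Nat.beq (τ s) (τ 0)) (Nat.beq (T 0 (τ s)) (τ s)))) = true)
    (hv : ∀ i < N, band (bor (Nat.beq i (τ 0)) (!allL Q fun s => Nat.beq (T s i) i))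
      (bor (!Nat.beq (T 0 i) i) (Nat.beq (C i) (C (τ 0)))) = true)
    (hC : ∀ i < N, force (C i) (fun c => allLt k fun x => Nat.beq (C (T x i)) (σ x c)) = true) (hj : j < N)
    (hj' : C j ≠ C (τ 0)) (hc : 1045094400 < Nat.card (genLt f k)) [(generalizedFittingSubgroup (genLt f k)).Normal] :
    Nonempty (genLt f k ⧸ generalizedFittingSubgroup (genLt f k) ≃* Equiv.Perm (Fin 3)) ∧
      Nonempty (generalizedFittingSubgroup (genLt f k) ≃* POmega (ZMod 3) (quadFormPlus 4 (ZMod 3))) := by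
  have := M.fin
  have k0 : ∀ i < N, M.x (P i) ∈ genLt f k := fun i hi => by
    obtain ⟨a, ha, e⟩ := hcov i hi
    rw [← smul_toCj_eq.1 e, ← (hτ 0 hk).2]
    exact mul_mem (mul_mem ha (mem_genLt f hk)) (inv_mem ha)
  have k1 : ∀ s < k, ∀ i < N, Commute (f s) (M.x (P i)) ↔ T s i = i := fun s hs i hi => by
    rw [← smul_toCj_self]
    exact ⟨fun h => he (hT s hs i hi).1 hi ((hT s hs i hi).2.symm.trans h), fun h => (hT s hs i hi).2.trans (by rw [h]; rfl)⟩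
  let D : Set (genLt f k) := {y | ∃ i < N, M.x (P i) = y}
  let d : genLt f k := ⟨f 0, mem_genLt f hk⟩
  have k2 : ∀ s (hs : s < k), ⟨f s, mem_genLt f hs⟩ ∈ D := fun s hs => ⟨τ s, (hτ s hs).1, (hτ s hs).2.symm⟩
  have k3 : ∀ y ∈ D, (y : G) ∈ M.D := fun y ⟨i, hi, e⟩ => e ▸ M.mem_D (hP i hi)
  have hD : IsThreeTranspositionClass D := by
    refine ⟨⟨fun y hy => (orderOf_coe y).symm.trans (h3.1 _ (k3 y hy)), fun y hy z hz =>
      (h3.2 _ (k3 y hy) _ (k3 z hz)).imp Subtype.ext Subtype.ext⟩, ⟨d, k2 0 hk, Set.ext fun y => ?_⟩, ?_⟩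
    · rw [mem_conjugatesOf_iff]
      constructor
      · rintro ⟨i, hi, e⟩
        obtain ⟨a, ha, e1⟩ := hcov i hi
        exact ⟨⟨a, ha⟩, Subtype.ext (by rw [← e, ← smul_toCj_eq.1 e1, ← (hτ 0 hk).2]; rfl)⟩
      · rintro ⟨a, rfl⟩
        obtain ⟨i, hi, e⟩ := hT.smul_mem a.2 (hτ 0 hk).1
        exact ⟨i, hi, by rw [← smul_toCj_eq.1 e, ← (hτ 0 hk).2]; rfl⟩
    · have : genLt f k ≤ (closure D).map (genLt f k).subtype :=
        genLt_le fun s hs => ⟨_, subset_closure (k2 s hs), rfl⟩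
      refine eq_top_iff.2 fun a _ => ?_
      obtain ⟨b, hb, e⟩ := this a.2
      rwa [← Subtype.ext e]
  have k4 : center (genLt f k) = ⊥ := eq_bot_iff.2 fun a ha => Subtype.ext (mem_bot.1 (hZ.le (mem_cen.2 fun s hs =>
    congrArg Subtype.val (mem_center_iff.1 ha ⟨f s, mem_genLt f hs⟩).symm)))
  simp only [allL_iff, band_iff, blt_iff, not_beq, nbeq_iff, bor_iff] at hQ hv
  have k5 : ∀ v ∈ D, (∀ y ∈ D, y ≠ d → Commute d y → Commute v y) → v = d := by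
    rintro v ⟨i, hi, e⟩ h
    refine Subtype.ext (e ▸ ((hv i hi).1.elim (fun h1 => h1 ▸ (hτ 0 hk).2.symm) fun h1 => absurd
      ((allL_iff _ _).2 fun s hs => ?_) (Bool.eq_false_iff.1 ((Bool.not_eq_true' _).mp h1))))
    obtain ⟨a1, a2, a3⟩ := hQ s hs
    have h2 := congrArg Subtype.val (h _ (k2 s a1) (fun e1 => a2 (he (hτ s a1).1 (hτ 0 hk).1 (by
      have := congrArg Subtype.val e1
      exact (hτ s a1).2.symm.trans (this.trans (hτ 0 hk).2))))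
      (Subtype.ext (by have := (k1 0 hk _ (hτ s a1).1).2 a3; rw [← (hτ s a1).2] at this; exact this))).symm
    exact (nbeq_iff _ _).2 ((k1 s a1 i hi).1 (e ▸ h2))
  have k6 : (⟨_, k0 j hj⟩ : genLt f k) ∉ {y ∈ D | ∃ i < N, C i = C (τ 0) ∧ M.x (P i) = y} := by
    rintro ⟨-, i, hi, e1, e2⟩
    exact hj' (he hi hj e2 ▸ e1)
  have k7 : ∃ a ∈ D, ∃ b ∈ D, a ≠ b :=
    ⟨d, k2 0 hk, ⟨_, k0 j hj⟩, ⟨j, hj, rfl⟩, fun e => k6 (e ▸ ⟨k2 0 hk, _, (hτ 0 hk).1, rfl, (hτ 0 hk).2.symm⟩)⟩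
  have k8 : ¬ TT.Fs D := fun h => by
    refine k6 ((h.conn _ (Set.sep_subset _ _) ⟨d, k2 0 hk, _, (hτ 0 hk).1, rfl, (hτ 0 hk).2.symm⟩ ?_).ge ⟨j, hj, rfl⟩)
    rintro x ⟨-, i, hi, e1, e2⟩ y ⟨l, hl, e3⟩ h
    obtain ⟨a, ha, e4⟩ := hcov i hi
    obtain ⟨l', hl', e5⟩ := hT.smul_mem (inv_mem ha) hl
    rw [inv_smul_eq_iff] at e5
    refine ⟨⟨l, hl, e3⟩, l, hl, (blk_inv hT he hC ha hl' (hτ 0 hk).1 hl hi e5.symm e4
      ((hv l' hl').2.resolve_left (not_not.2 ((k1 0 hk l' hl').1 ?_)))).trans e1, e3⟩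
    rw [(hτ 0 hk).2, ← Commute.conj_iff a, smul_toCj_eq.1 e4, smul_toCj_eq.1 e5.symm, e2, e3]
    exact congrArg Subtype.val h
  rcases (TT.red_of_cores hD k7
    ((TT.pCore_two_le_center_iff hD k7 (k2 0 hk)).2 fun v hv h => k5 v hv fun y hy _ h1 => (h y hy).2 h1)
    ((TT.pCore_three_le_center_iff hD k7 (k2 0 hk)).2 fun v hv h => k5 v hv fun y hy h1 h2 =>
      (h.ge ⟨hy, h1, h2⟩).2.2)).tria k8 with h | h
  · obtain ⟨⟨e1⟩, ⟨e2⟩⟩ := h.fstar_two hD.group k4 _ rfl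
    rw [card_eq_card_quotient_mul_card_subgroup (generalizedFittingSubgroup _), Nat.card_congr e1.toEquiv,
      Nat.card_congr e2.toEquiv, card_o8, Nat.card_perm, Nat.card_fin] at hc
    exact absurd hc (by decide)
  · exact h.fstar_three hD.group k4 _ rfl

end TM

end Cfsg.Agent.Spor.FL
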