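import Mathlib
import Cfsg.Agent.Spor.FL2.Cls

/-!
Letters in a normal subgroup of small index, and elements whose fixed points lie in one block.
-/

set_option autoImplicit false

namespace Cfsg.Agent.Spor.FL

open MulAction Subgroup

variable {G α : Type*} [Group G] [MulAction G α] {e : ℕ → α} {n k : ℕ} {T : ℕ → ℕ → ℕ} {g : ℕ → G} {B : List ℕ}

/-- The product of the letter `s` with a word in later letters has order prime to `c`. -/
noncomputable def copOK (T : ℕ → ℕ → ℕ) (B : List ℕ) (c k : ℕ) (D : LT) (s : ℕ) : Bool :=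
  force (hdL (D.get s)) fun o => band (Nat.beq (Nat.gcd o c) 1)
    (band (allL (tlL (D.get s)) fun x => band (blt s x) (blt x k))
      (allL B fun b => Nat.beq (iterT (traceP T (s :: tlL (D.get s))) o b) b))

theorem LM.le_of_coprime (h : LM e n T g k B) {I : Subgroup G} {F : Subgroup I} [F.Normal] (hI : genLt g k ≤ I) {c : ℕ}
    (hc : Nat.card (I ⧸ F) = c) {D : LT} (h1 : ∀ s < k, copOK T B c k D s = true) : genLt g k ≤ F.map I.subtype := by
  refine genLt_le fun s hs => ?_
  induction hd : k - s using Nat.strong_induction_on generalizing s with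
  | h d ih =>
    have h2 := h1 s hs
    simp only [copOK, force_eq, band_iff, nbeq_iff] at h2
    obtain ⟨h2, h3, h4⟩ := h2
    simp only [allL_iff, band_iff, blt_iff] at h3
    have k1 : lettersLt k (s :: tlL (D.get s)) = true := (lettersLt_iff _ _).2 fun x hx =>
      (List.mem_cons.1 hx).elim (fun e => e ▸ hs) fun hx => (h3 x hx).2
    have k2 := evalW_mem_genLt g k1
    have k3 := h.eq_of_tab (pow_mem k2 _) (one_mem _) ((h.tabs.evalW k1).pow _) (fun i hi => ⟨hi, one_smul _ _⟩) h4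
    have k4 : ((⟨_, hI k2⟩ : I) : I ⧸ F) = 1 := by
      rw [← pow_one ((⟨_, hI k2⟩ : I) : I ⧸ F), ← h2, pow_gcd_eq_one, ← hc]
      exact ⟨by rw [← QuotientGroup.mk_pow, show (⟨_, hI k2⟩ : I) ^ _ = 1 from Subtype.ext k3]; rfl, pow_card_eq_one'⟩
    have k5 : evalW g (s :: tlL (D.get s)) ∈ F.map I.subtype := ⟨_, (QuotientGroup.eq_one_iff _).1 k4, rfl⟩
    rwa [evalW_cons, mul_mem_cancel_right (evalW_mem fun x hx =>
      ih _ (by have := h3 x hx; omega) x (h3 x hx).2 rfl)] at k5

theorem beq_iff_of_inj (he : Set.InjOn e (Set.Iio n)) : ∀ i < n, ∀ j < n, Nat.beq i j = true ↔ e i = e j :=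
  fun _ hi _ hj => (nbeq_iff _ _).trans ⟨congrArg e, he hi hj⟩

/-- All fixed points have the same colour. -/
def OneCol (e : ℕ → α) (n : ℕ) (C : ℕ → ℕ) (a : G) : Prop :=
  ∀ i < n, ∀ j < n, a • e i = e i → a • e j = e j → C i = C j

theorem oneCol_inv (C : ℕ → ℕ) (a : G) : OneCol e n C a⁻¹ = OneCol e n C a := by
  simp only [OneCol, inv_smul_eq_iff, eq_comm (b := a • _)]

theorem oneCol_conj (h : Tabs e n T g k) (he : Set.InjOn e (Set.Iio n)) {C : ℕ → ℕ} {σ : ℕ → ℕ → ℕ}
    (hc : ∀ i < n, force (C i) (fun c => allLt k fun x => Nat.beq (C (T x i)) (σ x c)) = true) {u : G}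
    (hu : u ∈ genLt g k) (a : G) : OneCol e n C (u * a * u⁻¹) = OneCol e n C a := by
  have key : ∀ u ∈ genLt g k, ∀ a, OneCol e n C (u * a * u⁻¹) → OneCol e n C a := fun u hu a h1 i hi j hj k1 k2 => by
    obtain ⟨i', hi', e1⟩ := h.smul_mem hu hi
    obtain ⟨j', hj', e2⟩ := h.smul_mem hu hj
    exact blk_inv h he hc (inv_mem hu) hi' hj' hi hj (by rw [← e1, inv_smul_smul]) (by rw [← e2, inv_smul_smul])
      (h1 i' hi' j' hj' (by rw [← e1, mul_smul, inv_smul_smul, mul_smul, k1])
        (by rw [← e2, mul_smul, inv_smul_smul, mul_smul, k2]))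
  exact propext ⟨key u hu a, fun h1 => key _ (inv_mem hu) _ (by simpa [mul_assoc] using h1)⟩

theorem oneCol_of (he : Set.InjOn e (Set.Iio n)) {f C : ℕ → ℕ} {a : G} (hf : Tab e n f a) {c : ℕ}
    (h : allRange 0 n (fun i => bor (Nat.beq (C i) c) (!Nat.beq (f i) i)) = true) : OneCol e n C a := by
  have key : ∀ i < n, a • e i = e i → C i = c := fun i hi h1 => by
    have h2 := allRange_zero h i hi
    rw [bor_iff, nbeq_iff, not_beq] at h2
    exact h2.resolve_right (not_not.2 (he (hf i hi).1 hi ((hf i hi).2.symm.trans h1)))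
  exact fun i hi j hj k1 k2 => (key i hi k1).trans (key j hj k2).symm

theorem not_oneCol {f C : ℕ → ℕ} {a : G} (hf : Tab e n f a) {i j : ℕ}
    (h : band (band (blt i n) (blt j n)) (band (band (Nat.beq (f i) i) (Nat.beq (f j) j)) (!Nat.beq (C i) (C j))) = true) :
    ¬ OneCol e n C a := by
  simp only [band_iff, blt_iff, nbeq_iff, not_beq] at h
  exact fun h1 => h.2.2 (h1 i h.1.1 j h.1.2 (by rw [(hf i h.1.1).2, h.2.1.1]) (by rw [(hf j h.1.2).2, h.2.1.2]))

theorem range_subtype_comp {H : Type*} [Group H] {K : Subgroup G} (ε : H ≃* K) :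
    (K.subtype.comp ε.toMonoidHom).range = K := by
  rw [MonoidHom.range_comp, MonoidHom.range_eq_top.2 ε.surjective, ← MonoidHom.range_eq_map, range_subtype]

end Cfsg.Agent.Spor.FL
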